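import Mathlib
import Cfsg.Agent.H11.Brauer

set_option autoImplicit false

/-! A positivity argument for central idempotents supported on p-regular elements. -/

namespace Cfsg.Agent.LKO

open Cfsg Cfsg.Agent.H11 Cfsg.Agent.H3
open scoped ComplexConjugate

variable {G : Type*} [Group G] [Fintype G]

/-- hermitian form -/
noncomputable def ip (A B : MonoidAlgebra ℂ G) : ℂ := ∑ g : G, A.coeff g * conj (B.coeff g)

lemma ip_add_left (A B C : MonoidAlgebra ℂ G) : ip (A + B) C = ip A C + ip B C := by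
  unfold ip
  rw [← Finset.sum_add_distrib]
  refine Finset.sum_congr rfl fun g _ => ?_
  rw [MonoidAlgebra.coeff_add, Finsupp.add_apply, add_mul]

lemma ip_sub_left (A B C : MonoidAlgebra ℂ G) : ip (A - B) C = ip A C - ip B C := by
  unfold ip
  rw [← Finset.sum_sub_distrib]
  refine Finset.sum_congr rfl fun g _ => ?_
  rw [MonoidAlgebra.coeff_sub, Finsupp.sub_apply, sub_mul]

lemma ip_sub_right (A B C : MonoidAlgebra ℂ G) : ip A (B - C) = ip A B - ip A C := by
  unfold ip
  rw [← Finset.sum_sub_distrib]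
  refine Finset.sum_congr rfl fun g _ => ?_
  rw [MonoidAlgebra.coeff_sub, Finsupp.sub_apply, map_sub, mul_sub]

lemma ip_smul_left (c : ℂ) (A B : MonoidAlgebra ℂ G) : ip (c • A) B = c * ip A B := by
  unfold ip
  rw [Finset.mul_sum]
  refine Finset.sum_congr rfl fun g _ => ?_
  rw [MonoidAlgebra.coeff_smul, Finsupp.smul_apply, smul_eq_mul, mul_assoc]

lemma ip_sum_left {ι : Type*} (s : Finset ι) (A : ι → MonoidAlgebra ℂ G) (B : MonoidAlgebra ℂ G) :
    ip (∑ i ∈ s, A i) B = ∑ i ∈ s, ip (A i) B := by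
  unfold ip
  rw [Finset.sum_comm]
  refine Finset.sum_congr rfl fun g _ => ?_
  rw [MonoidAlgebra.coeff_sum, Finsupp.finsetSum_apply, Finset.sum_mul]

lemma ip_sum_right {ι : Type*} (s : Finset ι) (A : MonoidAlgebra ℂ G) (B : ι → MonoidAlgebra ℂ G) :
    ip A (∑ i ∈ s, B i) = ∑ i ∈ s, ip A (B i) := by
  unfold ip
  rw [Finset.sum_comm]
  refine Finset.sum_congr rfl fun g _ => ?_
  rw [MonoidAlgebra.coeff_sum, Finsupp.finsetSum_apply, map_sum, Finset.mul_sum]

lemma ip_symm (A B : MonoidAlgebra ℂ G) : ip B A = conj (ip A B) := by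
  unfold ip
  rw [map_sum]
  refine Finset.sum_congr rfl fun g _ => ?_
  rw [map_mul, Complex.conj_conj, mul_comm]

lemma ip_self (A : MonoidAlgebra ℂ G) : ip A A = ((∑ g : G, Complex.normSq (A.coeff g) : ℝ) : ℂ) := by
  unfold ip
  push_cast
  exact Finset.sum_congr rfl fun g _ => Complex.mul_conj _

lemma ip_self_re (A : MonoidAlgebra ℂ G) : 0 ≤ (ip A A).re := by
  rw [ip_self, Complex.ofReal_re]
  exact Finset.sum_nonneg fun g _ => Complex.normSq_nonneg _

lemma ip_self_pos {A : MonoidAlgebra ℂ G} {g : G} (h : A.coeff g ≠ 0) : 0 < (ip A A).re := by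
  rw [ip_self, Complex.ofReal_re]
  exact Finset.sum_pos' (fun g _ => Complex.normSq_nonneg _) ⟨g, Finset.mem_univ _, Complex.normSq_pos.2 h⟩

lemma coeff_mul' (A B : MonoidAlgebra ℂ G) (x : G) : (A * B).coeff x = ∑ h : G, A.coeff h * B.coeff (h⁻¹ * x) :=
  coeff_mul_sum A B x

/-- self-adjoint -/
def SA (C : MonoidAlgebra ℂ G) : Prop := ∀ g, C.coeff g⁻¹ = conj (C.coeff g)

lemma ip_mul_right {C : MonoidAlgebra ℂ G} (hC : SA C) (A B : MonoidAlgebra ℂ G) : ip (A * C) B = ip A (B * C) := by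
  unfold ip
  have h1 : ∀ g, (A * C).coeff g * conj (B.coeff g) = ∑ h : G, A.coeff h * C.coeff (h⁻¹ * g) * conj (B.coeff g) := by
    intro g
    rw [coeff_mul', Finset.sum_mul]
  rw [Finset.sum_congr rfl fun g _ => h1 g, Finset.sum_comm]
  refine Finset.sum_congr rfl fun h _ => ?_
  rw [coeff_mul', map_sum, Finset.mul_sum]
  refine Finset.sum_congr rfl fun g _ => ?_
  rw [map_mul (starRingEnd ℂ)]
  have h2 : conj (C.coeff (g⁻¹ * h)) = C.coeff (h⁻¹ * g) := by
    rw [← hC]; congr 1; group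
  rw [h2]
  ring

lemma norm_idem {P : MonoidAlgebra ℂ G} (h1 : SA P) (h2 : P * P = P) : ip P P = P.coeff 1 := by
  conv_rhs => rw [← h2, coeff_mul']
  unfold ip
  refine Finset.sum_congr rfl fun g _ => ?_
  rw [mul_one, h1]

lemma SA_mul {A B : MonoidAlgebra ℂ G} (hA : SA A) (hB : SA B) (h : A * B = B * A) : SA (A * B) := by
  intro g
  rw [h, coeff_mul', ← h, coeff_mul', map_sum, ← Equiv.sum_comp (Equiv.mulLeft g) (fun x => conj (A.coeff x * B.coeff (x⁻¹ * g)))]
  refine Finset.sum_congr rfl fun x _ => ?_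
  show B.coeff x * A.coeff (x⁻¹ * g⁻¹) = conj (A.coeff (g * x) * B.coeff ((g * x)⁻¹ * g))
  rw [map_mul (starRingEnd ℂ), ← hA, ← hB]
  have e1 : ((g * x)⁻¹ * g)⁻¹ = x := by group
  rw [e1, _root_.mul_inv_rev, mul_comm]

section key

variable {N M : Subgroup G} (hN : N.Normal) (hM : M.Normal) (hNM : N ≤ M)

/-- the part of `e` on a coset -/
noncomputable def part (N : Subgroup G) (e : MonoidAlgebra ℂ G) (q : G ⧸ N) : MonoidAlgebra ℂ G :=
  open Classical in toAlg (fun g => if (g : G ⧸ N) = q then e.coeff g else 0)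

lemma coeff_part (e : MonoidAlgebra ℂ G) (q : G ⧸ N) (g : G) [Decidable ((g : G ⧸ N) = q)] :
    (part N e q).coeff g = if (g : G ⧸ N) = q then e.coeff g else 0 := by
  unfold part
  rw [coeff_toAlg]
  congr

lemma sum_part [Fintype (G ⧸ N)] (e : MonoidAlgebra ℂ G) : ∑ q : G ⧸ N, part N e q = e := by
  classical
  ext g
  rw [MonoidAlgebra.coeff_sum, Finsupp.finsetSum_apply, Finset.sum_congr rfl fun q _ => coeff_part e q g, Finset.sum_ite_eq Finset.univ, if_pos (Finset.mem_univ _)]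

lemma mk_eq_iff' {x y : G} : (x : G ⧸ N) = y ↔ x⁻¹ * y ∈ N := QuotientGroup.eq

include hN in
lemma part_comm {e a : MonoidAlgebra ℂ G} (he : IsCen e) (ha : ∀ g, g ∉ N → a.coeff g = 0) (q : G ⧸ N) :
    part N e q * a = a * part N e q := by
  classical
  ext g
  rw [coeff_mul', coeff_mul', ← Equiv.sum_comp ((Equiv.inv G).trans (Equiv.mulLeft g)) (fun h => (part N e q).coeff h * a.coeff (h⁻¹ * g))]
  refine Finset.sum_congr rfl fun k _ => ?_
  show (part N e q).coeff (g * k⁻¹) * a.coeff ((g * k⁻¹)⁻¹ * g) = a.coeff k * (part N e q).coeff (k⁻¹ * g)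
  have e1 : (g * k⁻¹)⁻¹ * g = k := by group
  rw [e1]
  by_cases hk : k ∈ N
  · rw [coeff_part, coeff_part]
    have e2 : ((g * k⁻¹ : G) : G ⧸ N) = ((k⁻¹ * g : G) : G ⧸ N) := by
      rw [mk_eq_iff']
      have : (g * k⁻¹)⁻¹ * (k⁻¹ * g) = k * (g⁻¹ * k⁻¹ * g) := by group
      rw [this]
      refine N.mul_mem hk ?_
      have := hN.conj_mem k⁻¹ (N.inv_mem hk) g⁻¹
      rwa [inv_inv] at this
    have e3 : e.coeff (g * k⁻¹) = e.coeff (k⁻¹ * g) := by
      have := isCen_coeff he (g * k⁻¹) k⁻¹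
      rw [← this]
      congr 1; group
    rw [e2, e3, mul_comm]
  · rw [ha k hk, mul_zero, zero_mul]

include hN in
lemma part_mul {e t : MonoidAlgebra ℂ G} (ht : ∀ g, g ∉ N → t.coeff g = 0) (het : e * t = e) (q : G ⧸ N) :
    part N e q * t = part N e q := by
  classical
  ext g
  rw [coeff_mul', coeff_part]
  have h1 : ∀ h, (part N e q).coeff h * t.coeff (h⁻¹ * g) = if (g : G ⧸ N) = q then e.coeff h * t.coeff (h⁻¹ * g) else 0 := by
    intro h
    by_cases hh : h⁻¹ * g ∈ N
    · rw [coeff_part, mk_eq_iff'.2 hh]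
      split_ifs
      · rfl
      · rw [zero_mul]
    · rw [ht _ hh, mul_zero, mul_zero, ite_self]
  rw [Finset.sum_congr rfl fun h _ => h1 h]
  by_cases hq : (g : G ⧸ N) = q
  · simp only [if_pos hq]
    rw [← coeff_mul', het]
  · simp only [if_neg hq, Finset.sum_const_zero]

include hN in
lemma part_conj {e : MonoidAlgebra ℂ G} (he : IsCen e) (u y : G) :
    part N e ((u * y * u⁻¹ : G) : G ⧸ N) = MonoidAlgebra.single u 1 * part N e (y : G ⧸ N) * MonoidAlgebra.single u⁻¹ 1 := by
  classical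
  ext g
  rw [MonoidAlgebra.coeff_mul_single_apply, MonoidAlgebra.coeff_single_mul_apply, one_mul, mul_one, coeff_part, coeff_part]
  have e1 : (((g : G) : G ⧸ N) = ((u * y * u⁻¹ : G) : G ⧸ N)) ↔ (((u⁻¹ * (g * u⁻¹⁻¹) : G) : G ⧸ N) = (y : G ⧸ N)) := by
    rw [mk_eq_iff', mk_eq_iff']
    have e2 : (u⁻¹ * (g * u⁻¹⁻¹))⁻¹ * y = u⁻¹ * (g⁻¹ * (u * y * u⁻¹)) * u⁻¹⁻¹ := by group
    rw [e2]
    constructor
    · intro h; exact hN.conj_mem _ h u⁻¹
    · intro h
      have := hN.conj_mem _ h u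
      have e3 : u * (u⁻¹ * (g⁻¹ * (u * y * u⁻¹)) * u⁻¹⁻¹) * u⁻¹ = g⁻¹ * (u * y * u⁻¹) := by group
      rwa [e3] at this
  have e2 : e.coeff (u⁻¹ * (g * u⁻¹⁻¹)) = e.coeff g := by
    rw [← isCen_coeff he g u⁻¹]
    congr 1; group
  by_cases h : ((g : G) : G ⧸ N) = ((u * y * u⁻¹ : G) : G ⧸ N)
  · rw [if_pos h, if_pos (e1.1 h), e2]
  · rw [if_neg h, if_neg (fun h' => h (e1.2 h'))]

/-- **positivity** -/
theorem positivity' [hN : N.Normal] (hNM : N ≤ M) {e ε t : MonoidAlgebra ℂ G}
    (he : IsCen e) (hε : IsCen ε) (he2 : e * e = e) (hε2 : ε * ε = ε) (hes : SA e) (hεs : SA ε)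
    (hεM : ∀ g, g ∉ M → ε.coeff g = 0) (htN : ∀ g, g ∉ N → t.coeff g = 0)
    {r : ℝ} (hr : 0 < r) (hres : ∀ n ∈ N, ε.coeff n = (r : ℂ) * t.coeff n) (het : e * t = e)
    (hreg : ∀ g ∈ M, g ∉ N → e.coeff g = 0)
    (hconj : ∀ y z, e.coeff y ≠ 0 → e.coeff z ≠ 0 → y⁻¹ * z ∈ M → ∃ u ∈ M, (u * y * u⁻¹)⁻¹ * z ∈ N)
    (hcomm : ∀ u ∈ M, ∃ a : MonoidAlgebra ℂ G, (∀ g, g ∉ N → a.coeff g = 0) ∧ MonoidAlgebra.single u 1 * ε = a * ε)
    {y : G} (hy : e.coeff y ≠ 0) {u : G} (hu : u ∈ M) : y⁻¹ * (u * y * u⁻¹) ∈ N := by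
  classical
  letI : Fintype (G ⧸ N) := Fintype.ofFinite _
  by_contra hcon
  -- conjugate parts
  have hpc : ∀ u ∈ M, ∀ y : G, part N e ((u * y * u⁻¹ : G) : G ⧸ N) * ε = part N e (y : G ⧸ N) * ε := by
    intro u hu y
    obtain ⟨a, ha, hua⟩ := hcomm u hu
    have e0 : MonoidAlgebra.single u 1 * ε * MonoidAlgebra.single u⁻¹ 1 = ε := by
      rw [mul_assoc, isCen_commute hε, ← mul_assoc, MonoidAlgebra.single_mul_single, mul_inv_cancel, one_mul]
      exact one_mul _
    calc part N e ((u * y * u⁻¹ : G) : G ⧸ N) * ε = MonoidAlgebra.single u 1 * part N e (y : G ⧸ N) * MonoidAlgebra.single u⁻¹ 1 * ε := by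
          rw [part_conj hN he]
      _ = (MonoidAlgebra.single u 1 * ε) * part N e (y : G ⧸ N) * MonoidAlgebra.single u⁻¹ 1 := by
          rw [mul_assoc, ← isCen_commute hε, ← mul_assoc, mul_assoc _ (part N e (y : G ⧸ N)), ← isCen_commute hε, ← mul_assoc]
      _ = part N e (y : G ⧸ N) * (a * ε) * MonoidAlgebra.single u⁻¹ 1 := by
          rw [hua, mul_assoc a, isCen_commute hε, ← mul_assoc a, ← part_comm hN he ha, mul_assoc _ a]
      _ = part N e (y : G ⧸ N) * (MonoidAlgebra.single u 1 * ε * MonoidAlgebra.single u⁻¹ 1) := by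
          rw [← hua, mul_assoc]
      _ = _ := by rw [e0]
  have hself : ∀ q : G ⧸ N, ip (part N e q * ε) (part N e q * ε) = (r : ℂ) * ip (part N e q) (part N e q) := by
    intro q
    rw [ip_mul_right hεs, mul_assoc, hε2]
    unfold ip
    rw [Finset.mul_sum]
    refine Finset.sum_congr rfl fun g _ => ?_
    by_cases hg : (g : G ⧸ N) = q
    · have h1 : (part N e q * ε).coeff g = (r : ℂ) * (part N e q * t).coeff g := by
        rw [coeff_mul', coeff_mul', Finset.mul_sum]
        refine Finset.sum_congr rfl fun h _ => ?_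
        by_cases hh : (h : G ⧸ N) = q
        · have h2 : h⁻¹ * g ∈ N := mk_eq_iff'.1 (hh.trans hg.symm)
          rw [hres _ h2]; ring
        · have h2 : (part N e q).coeff h = 0 := by rw [coeff_part, if_neg hh]
          rw [h2]; ring
      rw [h1, part_mul hN htN het, map_mul (starRingEnd ℂ), Complex.conj_ofReal]
      ring
    · have h2 : (part N e q).coeff g = 0 := by rw [coeff_part, if_neg hg]
      rw [h2]; ring
  have hsum1 : ∑ q : G ⧸ N, ip (part N e q) (part N e q) = e.coeff 1 := by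
    rw [← norm_idem hes he2]
    unfold ip
    rw [Finset.sum_comm]
    refine Finset.sum_congr rfl fun g _ => ?_
    rw [Finset.sum_eq_single (g : G ⧸ N)]
    · rw [coeff_part, if_pos rfl]
    · intro q _ hq
      rw [coeff_part, if_neg (fun h => hq h.symm), zero_mul]
    · intro h; exact absurd (Finset.mem_univ _) h
  have hcm : e * ε = ε * e := isCen_commute he _
  have hidem : (e * ε) * (e * ε) = e * ε := by
    rw [mul_assoc, ← mul_assoc ε, ← hcm, mul_assoc e ε ε, hε2, ← mul_assoc, he2]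
  have hone : (e * ε).coeff 1 = (r : ℂ) * e.coeff 1 := by
    conv_rhs => rw [← het]
    rw [coeff_mul', coeff_mul', Finset.mul_sum]
    refine Finset.sum_congr rfl fun h _ => ?_
    rw [mul_one]
    by_cases hh : h ∈ N
    · rw [hres _ (N.inv_mem hh)]; ring
    · rw [htN h⁻¹ (fun h' => hh (by simpa using N.inv_mem h'))]
      by_cases hm : h ∈ M
      · rw [hreg h hm hh]; ring
      · rw [hεM h⁻¹ (fun h' => hm (by simpa using M.inv_mem h'))]; ring
  have htot : ∑ q : G ⧸ N, ∑ q' : G ⧸ N, ip (part N e q * ε) (part N e q' * ε) = ∑ q : G ⧸ N, ip (part N e q * ε) (part N e q * ε) := by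
    have h1 : ip (e * ε) (e * ε) = ∑ q : G ⧸ N, ∑ q' : G ⧸ N, ip (part N e q * ε) (part N e q' * ε) := by
      have h2 : e * ε = ∑ q : G ⧸ N, part N e q * ε := by
        rw [← Finset.sum_mul, sum_part]
      conv_lhs => rw [h2]
      rw [ip_sum_left]
      exact Finset.sum_congr rfl fun q _ => ip_sum_right _ _ _
    rw [← h1, norm_idem (SA_mul hes hεs hcm) hidem, hone, Finset.sum_congr rfl fun q _ => hself q, ← Finset.mul_sum, hsum1]
  have hnn : ∀ q q' : G ⧸ N, 0 ≤ (ip (part N e q * ε) (part N e q' * ε)).re := by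
    intro q q'
    by_cases h1 : ∃ y0 : G, (y0 : G ⧸ N) = q ∧ e.coeff y0 ≠ 0
    · by_cases h2 : ∃ z0 : G, (z0 : G ⧸ N) = q' ∧ e.coeff z0 ≠ 0
      · obtain ⟨y0, rfl, hy0⟩ := h1
        obtain ⟨z0, rfl, hz0⟩ := h2
        by_cases hm : y0⁻¹ * z0 ∈ M
        · obtain ⟨u, hu, huz⟩ := hconj y0 z0 hy0 hz0 hm
          rw [← mk_eq_iff'] at huz
          rw [← huz, hpc u hu]
          exact ip_self_re _
        · have h3 : ip (part N e (y0 : G ⧸ N) * ε) (part N e (z0 : G ⧸ N) * ε) = 0 := by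
            have hsupp : ∀ (w g : G), y0 = y0 → (part N e (w : G ⧸ N) * ε).coeff g ≠ 0 → w⁻¹ * g ∈ M := by
              intro w g _ hne
              rw [coeff_mul'] at hne
              obtain ⟨h, -, hh⟩ := Finset.exists_ne_zero_of_sum_ne_zero hne
              have h4 : (h : G ⧸ N) = (w : G ⧸ N) := by
                by_contra h5
                apply hh
                rw [coeff_part, if_neg h5, zero_mul]
              have h5 : h⁻¹ * g ∈ M := by
                by_contra h5
                exact hh (by rw [hεM _ h5, mul_zero])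
              have h6 := mk_eq_iff'.1 h4
              have : w⁻¹ * g = (h⁻¹ * w)⁻¹ * (h⁻¹ * g) := by group
              rw [this]
              exact M.mul_mem (M.inv_mem (hNM h6)) h5
            unfold ip
            apply Finset.sum_eq_zero
            intro g _
            by_contra hne
            apply hm
            have h4 := hsupp y0 g rfl (left_ne_zero_of_mul hne)
            have h5 := hsupp z0 g rfl (fun h => hne (by rw [h, map_zero, mul_zero]))
            have : y0⁻¹ * z0 = (y0⁻¹ * g) * (z0⁻¹ * g)⁻¹ := by group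
            rw [this]
            exact M.mul_mem h4 (M.inv_mem h5)
          rw [h3]; simp
      · have h3 : part N e q' = 0 := by
          ext g
          rw [coeff_part]
          by_cases hg : (g : G ⧸ N) = q'
          · rw [if_pos hg]
            by_contra hne
            exact h2 ⟨g, hg, hne⟩
          · rw [if_neg hg]; rfl
        rw [h3, zero_mul]
        unfold ip
        simp
    · have h3 : part N e q = 0 := by
        ext g
        rw [coeff_part]
        by_cases hg : (g : G ⧸ N) = q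
        · rw [if_pos hg]
          by_contra hne
          exact h1 ⟨g, hg, hne⟩
        · rw [if_neg hg]; rfl
      rw [h3, zero_mul]
      unfold ip
      simp
  have hlt : ∑ q : G ⧸ N, (ip (part N e q * ε) (part N e q * ε)).re < ∑ q : G ⧸ N, ∑ q' : G ⧸ N, (ip (part N e q * ε) (part N e q' * ε)).re := by
    apply Finset.sum_lt_sum
    · intro q _
      exact Finset.single_le_sum (f := fun q' => (ip (part N e q * ε) (part N e q' * ε)).re) (fun q' _ => hnn q q') (Finset.mem_univ q)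
    · refine ⟨(y : G ⧸ N), Finset.mem_univ _, ?_⟩
      have hne : ((u * y * u⁻¹ : G) : G ⧸ N) ≠ (y : G ⧸ N) := by
        intro h
        apply hcon
        exact mk_eq_iff'.1 h.symm
      rw [← Finset.add_sum_erase _ _ (Finset.mem_univ (y : G ⧸ N))]
      apply lt_add_of_pos_right
      apply Finset.sum_pos' (fun q' _ => hnn _ q')
      refine ⟨((u * y * u⁻¹ : G) : G ⧸ N), Finset.mem_erase.2 ⟨hne, Finset.mem_univ _⟩, ?_⟩
      rw [hpc u hu y, hself, Complex.re_ofReal_mul]
      apply mul_pos hr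
      apply ip_self_pos (g := y)
      rw [coeff_part, if_pos rfl]
      exact hy
  have := congrArg Complex.re htot
  rw [Complex.re_sum, Complex.re_sum] at this
  rw [Finset.sum_congr rfl fun q _ => Complex.re_sum _ _] at this
  linarith

end key

end Cfsg.Agent.LKO
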