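import Mathlib
import Cfsg.Agent.L.KO1
import Cfsg.Agent.H11.Emb
import Cfsg.Agent.H26.Fong1
import Cfsg.Agent.S0868

set_option autoImplicit false

/-! Idempotents of characters of normal subgroups. -/

namespace Cfsg.Agent.LKO

open Cfsg Cfsg.Agent.H11 Cfsg.Agent.H3
open scoped ComplexConjugate

universe u

variable {G : Type u} [Group G] [Fintype G]

lemma blockCoeff_single (χ : IrrCharacter G) (h : G) :
    blockCoeff {χ} h = (Nat.card G : ℂ)⁻¹ * ((χ : G → ℂ) 1 * conj ((χ : G → ℂ) h)) := by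
  unfold blockCoeff
  rw [finsum_mem_singleton]

lemma SA_fIdem (B : Set (IrrCharacter G)) : SA (fIdem B) := by
  classical
  letI := Fintype.ofFinite (IrrCharacter G)
  intro g
  rw [coeff_fIdem, coeff_fIdem]
  unfold blockCoeff
  rw [map_mul (starRingEnd ℂ), finsum_mem_irr, finsum_mem_irr, map_sum, map_inv₀, Complex.conj_natCast]
  congr 1
  refine Finset.sum_congr rfl fun χ _ => ?_
  obtain ⟨d, -, hd⟩ := irr_one_eq_nat χ.2
  rw [map_mul (starRingEnd ℂ), hd, Complex.conj_natCast, Complex.conj_conj, char_inv (irr_isChar χ.2), Complex.conj_conj]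

/-- idempotent of a character of a subgroup -/
noncomputable def EE (H : Subgroup G) [Fintype H] (χ : IrrCharacter H) : MonoidAlgebra ℂ G := emb H (fIdem {χ})

variable {H : Subgroup G} [Fintype H] (χ : IrrCharacter H)

lemma EE_mem {h : G} (hh : h ∈ H) : (EE H χ).coeff h = (Nat.card H : ℂ)⁻¹ * ((χ : H → ℂ) 1 * conj ((χ : H → ℂ) ⟨h, hh⟩)) := by
  unfold EE
  rw [coeff_emb_mem H _ hh, coeff_fIdem, blockCoeff_single]

lemma EE_notMem {h : G} (hh : h ∉ H) : (EE H χ).coeff h = 0 := coeff_emb_not_mem H _ hh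

lemma EE_idem : EE H χ * EE H χ = EE H χ := by
  unfold EE
  rw [← map_mul, fIdem_mul_self]

lemma EE_SA : SA (EE H χ) := by
  intro g
  by_cases hg : g ∈ H
  · have h1 := SA_fIdem ({χ} : Set (IrrCharacter H)) ⟨g, hg⟩
    unfold EE
    rw [coeff_emb_mem H _ hg, coeff_emb_mem H _ (H.inv_mem hg), ← h1]
    rfl
  · rw [EE_notMem χ hg, EE_notMem χ (fun h => hg (by simpa using H.inv_mem h)), map_zero]

lemma EE_cen [hH : H.Normal] (hinv : ∀ (g : G) (n : H), (χ : H → ℂ) ⟨g * n * g⁻¹, hH.conj_mem n n.2 g⟩ = (χ : H → ℂ) n) : IsCen (EE H χ) := by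
  intro g x
  show (EE H χ).coeff _ = (EE H χ).coeff _
  by_cases hg : g ∈ H
  · rw [EE_mem χ hg, EE_mem χ (hH.conj_mem g hg x)]
    have := hinv x ⟨g, hg⟩
    rw [this]
  · rw [EE_notMem χ hg, EE_notMem χ]
    intro h
    apply hg
    have := hH.conj_mem _ h x⁻¹
    have e : x⁻¹ * (x * g * x⁻¹) * x⁻¹⁻¹ = g := by group
    rwa [e] at this

lemma lin_EE (ψ : G → ℂ) : lin ψ (EE H χ) = (χ : H → ℂ) 1 * classInner (fun n : H => ψ n) (χ : H → ℂ) := by
  unfold EE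
  rw [lin_emb, lin_apply]
  unfold classInner
  rw [Finset.mul_sum, Finset.mul_sum]
  refine Finset.sum_congr rfl fun h _ => ?_
  rw [coeff_fIdem, blockCoeff_single]
  ring

/-- characters over an invariant character -/
lemma res_eq [hH : H.Normal] (hinv : ∀ (g : G) (n : H), (χ : H → ℂ) ⟨g * n * g⁻¹, hH.conj_mem n n.2 g⟩ = (χ : H → ℂ) n)
    (ψ : IrrCharacter G) (hψ : classInner (fun n : H => (ψ : G → ℂ) n) (χ : H → ℂ) ≠ 0) (n : H) :
    (ψ : G → ℂ) n * (χ : H → ℂ) 1 = (ψ : G → ℂ) 1 * (χ : H → ℂ) n := by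
  have h1 := clifford_invariant hH ψ.2 χ.2 (fun x => funext fun h => hinv x h) hψ
  have h2 := congrFun h1 n
  have h3 := congrFun h1 1
  simp only [Pi.smul_apply, smul_eq_mul, Subgroup.coe_one] at h2 h3
  rw [h2, h3]; ring

lemma omega_EE [hH : H.Normal] (hinv : ∀ (g : G) (n : H), (χ : H → ℂ) ⟨g * n * g⁻¹, hH.conj_mem n n.2 g⟩ = (χ : H → ℂ) n)
    (ψ : IrrCharacter G) (hψ : classInner (fun n : H => (ψ : G → ℂ) n) (χ : H → ℂ) ≠ 0) : omega (ψ : G → ℂ) (EE H χ) = 1 := by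
  unfold omega
  rw [lin_EE]
  have h1 := clifford_invariant hH ψ.2 χ.2 (fun x => funext fun h => hinv x h) hψ
  have h3 := congrFun h1 1
  simp only [Pi.smul_apply, smul_eq_mul, Subgroup.coe_one] at h3
  obtain ⟨d, hd0, hd⟩ := irr_one_eq_nat ψ.2
  have hne : (ψ : G → ℂ) 1 ≠ 0 := by
    rw [hd]; exact Nat.cast_ne_zero.2 (Nat.pos_iff_ne_zero.1 hd0)
  rw [div_eq_one_iff_eq hne, h3, mul_comm]

lemma omega_EE_zero (ψ : IrrCharacter G) (hψ : classInner (fun n : H => (ψ : G → ℂ) n) (χ : H → ℂ) = 0) : omega (ψ : G → ℂ) (EE H χ) = 0 := by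
  unfold omega
  rw [lin_EE, hψ, mul_zero, zero_div]

/-- the part over `χ` -/
lemma fIdem_mul_EE [hH : H.Normal] (hinv : ∀ (g : G) (n : H), (χ : H → ℂ) ⟨g * n * g⁻¹, hH.conj_mem n n.2 g⟩ = (χ : H → ℂ) n)
    (U : Set (IrrCharacter G)) : fIdem U * EE H χ = fIdem {ψ ∈ U | classInner (fun n : H => (ψ : G → ℂ) n) (χ : H → ℂ) ≠ 0} := by
  classical
  apply isCen_ext (isCen_mul (isCen_fIdem _) (EE_cen χ hinv)) (isCen_fIdem _)
  intro ψ
  rw [omega_mul ψ.2 (isCen_fIdem _), omega_fIdem, omega_fIdem]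
  by_cases h : classInner (fun n : H => (ψ : G → ℂ) n) (χ : H → ℂ) = 0
  · rw [omega_EE_zero χ ψ h, mul_zero, if_neg (fun h' => h'.2 h)]
  · rw [omega_EE χ hinv ψ h, mul_one]
    by_cases hU : ψ ∈ U
    · rw [if_pos hU, if_pos ⟨hU, h⟩]
    · rw [if_neg hU, if_neg (fun h' => hU h'.1)]

end Cfsg.Agent.LKO
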