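import Mathlib
import Cfsg.Agent.L.KO2
import Cfsg.Agent.H16.BnF

set_option autoImplicit false

/-! The invariant case of the Kiyota-Okuyama theorem. -/

namespace Cfsg.Agent.LKO

open Cfsg Cfsg.Agent.H11 Cfsg.Agent.H3 Cfsg.Agent.H26
open scoped ComplexConjugate

universe u

variable {G : Type u} [Group G] [Fintype G]

/-- determinantal orders along automorphisms -/
lemma detOrder_comp {X : G → ℂ} (hX : IsCharacter G X) (f : G ≃* G) : detOrder (fun g => X (f g)) = detOrder X := by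
  unfold detOrder
  have h1 := detChar_comp hX f.toMonoidHom
  have h2 : detChar (fun h => X (f h)) = fun h => detChar X (f h) := h1
  rw [h2]
  apply orderOf_eq_orderOf_iff.2
  intro n
  constructor
  · intro h
    funext g
    have := congrFun h (f.symm g)
    simpa using this
  · intro h
    funext g
    have := congrFun h (f g)
    simpa using this

/-- an invariant extension to `M` -/
lemma exists_X {N M : Subgroup G} [hN : N.Normal] [hM : M.Normal] (hNM : N ≤ M) [Fintype N] [Fintype M] (hcop : (Nat.card N).Coprime (N.relIndex M))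
    (θ : IrrCharacter N) (hinv : ∀ (g : G) (n : N), (θ : N → ℂ) ⟨g * n * g⁻¹, hN.conj_mem n n.2 g⟩ = (θ : N → ℂ) n) :
    ∃ X : IrrCharacter M, (∀ n : N, (X : M → ℂ) ⟨n, hNM n.2⟩ = (θ : N → ℂ) n) ∧
      (∀ (g : G) (n : M), (X : M → ℂ) ⟨g * n * g⁻¹, hM.conj_mem n n.2 g⟩ = (X : M → ℂ) n) := by
  classical
  haveI : (N.subgroupOf M).Normal := hN.subgroupOf M
  have hc : (Nat.card (N.subgroupOf M)).Coprime (N.subgroupOf M).index := by
    rw [← Nat.card_congr (subE hNM).toEquiv]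
    exact hcop
  have key : ∀ k : N.subgroupOf M, ((irrMap (subE hNM) θ : IrrCharacter (N.subgroupOf M)) : N.subgroupOf M → ℂ) k = (θ : N → ℂ) ⟨((k : M) : G), k.2⟩ := by
    intro k
    rw [irrMap_apply]
    congr 1
  obtain ⟨X, hX, -⟩ := H27.canExt_aux hc (irrMap (subE hNM) θ) (by
    intro x _ k k' hkk
    rw [key, key]
    have h3 := hinv (x : G) ⟨((k : M) : G), k.2⟩
    rw [← h3]
    refine congrArg (θ : N → ℂ) (Subtype.ext ?_)
    show ((k' : M) : G) = (x : G) * ((k : M) : G) * (x : G)⁻¹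
    rw [hkk]; simp)
  refine ⟨⟨X, hX.irr⟩, fun n => ?_, fun g => ?_⟩
  · have h1 := hX.res (subE hNM n)
    rw [subE_coe] at h1
    show X _ = _
    rw [h1, key]
    congr 1
  · have hY : H27.CanExt (N.subgroupOf M) (irrMap (subE hNM) θ) (fun m => X (cjEquiv hM g m)) := by
      refine ⟨(isIrr_comp_equiv_iff (cjEquiv hM g)).2 hX.irr, fun k => ?_, ?_⟩
      · have hk' : (cjEquiv hM g (k : M)) ∈ N.subgroupOf M := by
          rw [Subgroup.mem_subgroupOf]
          exact hN.conj_mem _ k.2 g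
        have h1 := hX.res ⟨_, hk'⟩
        rw [key] at h1
        rw [key]
        refine Eq.trans h1 ?_
        exact hinv g ⟨((k : M) : G), k.2⟩
      · rw [detOrder_comp (irr_isChar hX.irr)]
        exact hX.det
    intro n
    exact congrFun (hY.unique hc hX) n

lemma sum_sq {N M : Subgroup G} [hN : N.Normal] (hNM : N ≤ M) [Fintype N] [Fintype M]
    (θ : IrrCharacter N) (X : IrrCharacter M) (hX : ∀ n : N, (X : M → ℂ) ⟨n, hNM n.2⟩ = (θ : N → ℂ) n)
    (u : M) : ∑ n : N, (X : M → ℂ) (⟨n, hNM n.2⟩ * u) * conj ((X : M → ℂ) (⟨n, hNM n.2⟩ * u)) = (Nat.card N : ℂ) := by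
  classical
  haveI : (N.subgroupOf M).Normal := hN.subgroupOf M
  letI : Fintype (N.subgroupOf M) := Fintype.ofFinite _
  have hres : IsIrrCharacter (N.subgroupOf M) (fun n : N.subgroupOf M => (X : M → ℂ) n) := by
    rw [← isIrr_comp_equiv_iff (subE hNM)]
    have : (fun n : N => (fun n : N.subgroupOf M => (X : M → ℂ) n) (subE hNM n)) = (θ : N → ℂ) := by
      funext n
      show (X : M → ℂ) ((subE hNM n : N.subgroupOf M) : M) = _
      rw [subE_coe, hX]
    rw [this]; exact θ.2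
  have h1 := (Cfsg.Agent.S0868.result (N.subgroupOf M) (X : M → ℂ) X.2 hres (X : M → ℂ) X.2 _ rfl).2.2 rfl
  have h2 := congrFun h1 u
  have hc : Nat.card (N.subgroupOf M) = Nat.card N := (Nat.card_congr (subE hNM).toEquiv).symm
  rw [hc] at h2
  have hne : (Nat.card N : ℂ) ≠ 0 := Nat.cast_ne_zero.2 Nat.card_pos.ne'
  have h3 : ∑ n : N.subgroupOf M, (X : M → ℂ) ((n : M) * u) * conj ((X : M → ℂ) ((n : M) * u)) = (Nat.card N : ℂ) := by
    rw [inv_mul_eq_iff_eq_mul₀ hne, mul_one] at h2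
    exact h2
  rw [← h3, ← Equiv.sum_comp (subE hNM).toEquiv]
  refine Finset.sum_congr rfl fun n _ => ?_
  show _ = (X : M → ℂ) (((subE hNM n : N.subgroupOf M) : M) * u) * conj ((X : M → ℂ) (((subE hNM n : N.subgroupOf M) : M) * u))
  rw [subE_coe]

/-- multiplication by elements of `M` -/
lemma comm_aux {N M : Subgroup G} [hN : N.Normal] (hNM : N ≤ M) [Fintype N] [Fintype M]
    (θ : IrrCharacter N) (X : IrrCharacter M) (hX : ∀ n : N, (X : M → ℂ) ⟨n, hNM n.2⟩ = (θ : N → ℂ) n)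
    (u : G) (hu : u ∈ M) : ∃ a : MonoidAlgebra ℂ G, (∀ g, g ∉ N → a.coeff g = 0) ∧ MonoidAlgebra.single u 1 * EE M X = a * EE M X := by
  classical
  obtain ⟨d, hd0, hd⟩ := irr_one_eq_nat θ.2
  have hXd : (X : M → ℂ) 1 = (d : ℂ) := (hX 1).trans hd
  have hNne : (Nat.card N : ℂ) ≠ 0 := Nat.cast_ne_zero.2 Nat.card_pos.ne'
  have hMne : (Nat.card M : ℂ) ≠ 0 := Nat.cast_ne_zero.2 Nat.card_pos.ne'
  let xf : G → ℂ := fun g => if h : g ∈ M then (X : M → ℂ) ⟨g, h⟩ else 0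
  have hxf : ∀ g (h : g ∈ M), xf g = (X : M → ℂ) ⟨g, h⟩ := fun g h => dif_pos h
  have hXe : ∀ g ∈ M, (EE M X).coeff g = (Nat.card M : ℂ)⁻¹ * (d * conj (xf g)) := by
    intro g hg
    rw [EE_mem X hg, hXd, hxf g hg]
  let a : MonoidAlgebra ℂ G := toAlg (fun g => if g ∈ N then (Nat.card N : ℂ)⁻¹ * (d * xf (g⁻¹ * u)) else 0)
  have ha : ∀ g, a.coeff g = if g ∈ N then (Nat.card N : ℂ)⁻¹ * (d * xf (g⁻¹ * u)) else 0 := fun g => coeff_toAlg _ _
  have hsum : ∑ g : G, (if g ∈ N then xf (g⁻¹ * u) * conj (xf (g⁻¹ * u)) else 0) = (Nat.card N : ℂ) := by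
    rw [← sum_sq hNM θ X hX ⟨u, hu⟩, ← Finset.sum_filter, Finset.sum_subtype (Finset.univ.filter fun x => x ∈ N) (p := fun x => x ∈ N) (by simp) (fun x => xf (x⁻¹ * u) * conj (xf (x⁻¹ * u))),
      ← Equiv.sum_comp (Equiv.inv N)]
    refine Finset.sum_congr rfl fun n _ => ?_
    show xf ((((n⁻¹ : N) : G))⁻¹ * u) * conj (xf ((((n⁻¹ : N) : G))⁻¹ * u)) = _
    have e1 : (((n⁻¹ : N) : G))⁻¹ * u = (n : G) * u := by simp
    rw [e1, hxf _ (M.mul_mem (hNM n.2) hu)]
    rfl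
  refine ⟨a, fun g hg => by rw [ha, if_neg hg], ?_⟩
  set ε := EE M X with hε
  have hSA : SA ε := EE_SA X
  have hid : ε * ε = ε := EE_idem X
  have hip : ∀ A B : MonoidAlgebra ℂ G, ip (A * ε) (B * ε) = ip A (B * ε) := by
    intro A B
    rw [ip_mul_right hSA, mul_assoc, hid]
  have hsing : ∀ B : MonoidAlgebra ℂ G, ip (MonoidAlgebra.single u 1) B = conj (B.coeff u) := by
    intro B
    unfold ip
    rw [Finset.sum_eq_single u]
    · rw [MonoidAlgebra.coeff_single, Finsupp.single_eq_same, one_mul]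
    · intro g _ hg
      rw [MonoidAlgebra.coeff_single, Finsupp.single_eq_of_ne hg, zero_mul]
    · intro h; exact absurd (Finset.mem_univ _) h
  obtain ⟨κ, hκ⟩ : ∃ κ : ℝ, κ = (d : ℝ) ^ 2 * (Nat.card M : ℝ)⁻¹ := ⟨_, rfl⟩
  have hκc : (κ : ℂ) = (d : ℂ) ^ 2 * (Nat.card M : ℂ)⁻¹ := by rw [hκ]; push_cast; rfl
  -- the four terms
  have t1 : ip (MonoidAlgebra.single u 1) (MonoidAlgebra.single u 1 * ε) = κ := by
    rw [hsing, MonoidAlgebra.coeff_single_mul_apply, inv_mul_cancel, one_mul, hXe 1 M.one_mem, hxf 1 M.one_mem]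
    have : (X : M → ℂ) ⟨1, M.one_mem⟩ = d := hXd
    rw [this, map_mul (starRingEnd ℂ), map_mul (starRingEnd ℂ), Complex.conj_natCast, map_inv₀, Complex.conj_natCast, Complex.conj_natCast, hκc]
    ring
  have haε : (a * ε).coeff u = κ := by
    rw [coeff_mul']
    have h1 : ∀ g, a.coeff g * ε.coeff (g⁻¹ * u) = ((Nat.card N : ℂ)⁻¹ * (Nat.card M : ℂ)⁻¹ * d ^ 2) * (if g ∈ N then xf (g⁻¹ * u) * conj (xf (g⁻¹ * u)) else 0) := by
      intro g
      rw [ha]
      split_ifs with h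
      · rw [hXe _ (M.mul_mem (M.inv_mem (hNM h)) hu)]; ring
      · ring
    rw [Finset.sum_congr rfl fun g _ => h1 g, ← Finset.mul_sum, hsum, hκc]
    field_simp
  have t2 : ip (MonoidAlgebra.single u 1) (a * ε) = κ := by
    rw [hsing, haε, Complex.conj_ofReal]
  have t3 : ip a (MonoidAlgebra.single u 1 * ε) = κ := by
    have h := ip_mul_right hSA a (MonoidAlgebra.single u 1)
    rw [← h, ip_symm (MonoidAlgebra.single u 1) (a * ε), t2, Complex.conj_ofReal]
  have t4 : ip a (a * ε) = ((Nat.card N : ℝ) * (Nat.card M : ℝ)⁻¹ : ℝ) * ip a (a * EE N θ) := by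
    unfold ip
    rw [Finset.mul_sum]
    refine Finset.sum_congr rfl fun g _ => ?_
    by_cases hg : g ∈ N
    · have h1 : (a * ε).coeff g = ((Nat.card N : ℝ) * (Nat.card M : ℝ)⁻¹ : ℝ) * (a * EE N θ).coeff g := by
        rw [coeff_mul', coeff_mul', Finset.mul_sum]
        refine Finset.sum_congr rfl fun h _ => ?_
        by_cases hh : h ∈ N
        · have h2 : h⁻¹ * g ∈ N := N.mul_mem (N.inv_mem hh) hg
          rw [hXe _ (hNM h2), hxf _ (hNM h2), EE_mem θ h2, hX ⟨_, h2⟩, hd]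
          push_cast
          field_simp
        · rw [ha h, if_neg hh]; ring
      rw [h1, map_mul (starRingEnd ℂ), Complex.conj_ofReal]
      ring
    · rw [ha g, if_neg hg]; ring
  have t5 : (ip a (a * EE N θ)).re ≤ (ip a a).re := by
    have h1 : ip (a - a * EE N θ) (a - a * EE N θ) = ip a a - ip a (a * EE N θ) := by
      rw [ip_sub_left, ip_sub_right, ip_sub_right, ip_mul_right (EE_SA θ) a a, ip_mul_right (EE_SA θ) a (a * EE N θ), mul_assoc, EE_idem θ]
      ring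
    have h2 := ip_self_re (a - a * EE N θ)
    rw [h1, Complex.sub_re] at h2
    linarith
  have t6 : ip a a = ((d : ℝ) ^ 2 * (Nat.card N : ℝ)⁻¹ : ℝ) := by
    unfold ip
    have h1 : ∀ g, a.coeff g * conj (a.coeff g) = ((Nat.card N : ℂ)⁻¹ * (Nat.card N : ℂ)⁻¹ * d ^ 2) * (if g ∈ N then xf (g⁻¹ * u) * conj (xf (g⁻¹ * u)) else 0) := by
      intro g
      rw [ha]
      split_ifs with h
      · rw [map_mul (starRingEnd ℂ), map_mul (starRingEnd ℂ), map_inv₀, Complex.conj_natCast, Complex.conj_natCast]; ring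
      · rw [map_zero]; ring
    rw [Finset.sum_congr rfl fun g _ => h1 g, ← Finset.mul_sum, hsum]
    push_cast
    field_simp
  -- conclusion
  have hD : (ip (MonoidAlgebra.single u 1 * ε - a * ε) (MonoidAlgebra.single u 1 * ε - a * ε)).re ≤ 0 := by
    have h1 : ip (MonoidAlgebra.single u 1 * ε - a * ε) (MonoidAlgebra.single u 1 * ε - a * ε) = κ - κ - (κ - ip a (a * ε)) := by
      rw [ip_sub_left, ip_sub_right, ip_sub_right, hip, hip, hip, hip, t1, t2, t3]
    rw [h1, t4]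
    rw [Complex.sub_re, Complex.sub_re, Complex.sub_re, Complex.re_ofReal_mul]
    have h2 : ((Nat.card N : ℝ) * (Nat.card M : ℝ)⁻¹) * (ip a (a * EE N θ)).re ≤ ((Nat.card N : ℝ) * (Nat.card M : ℝ)⁻¹) * ((d : ℝ) ^ 2 * (Nat.card N : ℝ)⁻¹) := by
      apply mul_le_mul_of_nonneg_left _ (by positivity)
      refine t5.trans ?_
      rw [t6, Complex.ofReal_re]
    have h3 : ((Nat.card N : ℝ) * (Nat.card M : ℝ)⁻¹) * ((d : ℝ) ^ 2 * (Nat.card N : ℝ)⁻¹) = κ := by
      rw [hκ]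
      have : (Nat.card N : ℝ) ≠ 0 := Nat.cast_ne_zero.2 Nat.card_pos.ne'
      field_simp
    rw [h3] at h2
    simp only [Complex.ofReal_re]
    linarith
  rw [← sub_eq_zero]
  ext g
  by_contra hne
  exact absurd (ip_self_pos hne) (not_lt.2 hD)

theorem inv_case {p : ℕ} [hp : Fact p.Prime] (hsolv : IsPSolvable p G) {N : Subgroup G} [hN : N.Normal]
    (hNdef : N = pPrimeCore p G) [Fintype N] (θ : IrrCharacter N)
    (hinv : ∀ (g : G) (n : N), (θ : N → ℂ) ⟨g * n * g⁻¹, hN.conj_mem n n.2 g⟩ = (θ : N → ℂ) n)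
    (U : Set (IrrCharacter G)) (hU : ∀ x : G, p ∣ orderOf x → (fIdem U).coeff x = 0)
    (hUθ : ∀ χ ∈ U, classInner (fun n : N => (χ : G → ℂ) n) (θ : N → ℂ) ≠ 0)
    {χ ψ : IrrCharacter G} (hχ : χ ∈ U) (hψ : classInner (fun n : N => (ψ : G → ℂ) n) (θ : N → ℂ) ≠ 0) : ψ ∈ U := by
  classical
  have hcopK : (Nat.card N).Coprime p := by
    have h := H1.pPrimeCore_coprime p G
    rwa [← hNdef] at h
  have hLp := H1.pCore_isPGroup p (G ⧸ N)
  have hbot : pPrimeCore p (G ⧸ N) = ⊥ := by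
    have h := H23.pPrimeCore_quotient_eq_bot p G
    subst hNdef
    exact h
  have hcent := H23.centralizer_pCore_le (H23.isPSolvable_quotient N hsolv) hbot
  set R := pCore p (G ⧸ N) with hR
  have hRn : R.Normal := H1.pCore_normal p _
  set M := R.comap (QuotientGroup.mk' N) with hMdef
  have hMn : M.Normal := hRn.comap _
  letI : Fintype M := Fintype.ofFinite _
  have hmM : ∀ x : G, x ∈ M ↔ (x : G ⧸ N) ∈ R := fun x => Iff.rfl
  have hNM : N ≤ M := by
    intro x hx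
    rw [hmM, (QuotientGroup.eq_one_iff x).2 hx]
    exact R.one_mem
  obtain ⟨j, hj⟩ := IsPGroup.iff_card.mp hLp
  have hcards : Nat.card M = Nat.card N * p ^ j := by
    have h1 := H23.card_comap_mk' N R
    rw [← hMdef, hj] at h1
    rw [h1]
    try ring
  have hrel : N.relIndex M = p ^ j := by
    have h2 := Subgroup.relIndex_mul_relIndex (⊥ : Subgroup G) N M bot_le hNM
    rw [Subgroup.relIndex_bot_left, Subgroup.relIndex_bot_left] at h2
    rw [hcards] at h2
    exact Nat.eq_of_mul_eq_mul_left Nat.card_pos h2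
  obtain ⟨X, hX, hXinv⟩ := exists_X hNM (by rw [hrel]; exact hcopK.pow_right j) θ hinv
  have hreg : ∀ x : G, ¬ p ∣ orderOf x → ¬ p ∣ orderOf (x : G ⧸ N) := fun x hx h => hx (h.trans (orderOf_map_dvd (QuotientGroup.mk' N) x))
  have hmemN : ∀ x : G, ¬ p ∣ orderOf x → (x : G ⧸ N) ∈ R → x ∈ N := by
    intro x hx hxR
    rw [← QuotientGroup.eq_one_iff]
    obtain ⟨k, hk⟩ := (IsPGroup.iff_orderOf.mp hLp) ⟨_, hxR⟩
    rw [Subgroup.orderOf_mk] at hk
    have hk0 : k = 0 := by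
      by_contra hk0
      exact hreg x hx (hk ▸ dvd_pow_self p hk0)
    rw [hk0, pow_zero] at hk
    exact orderOf_eq_one_iff.1 hk
  have hsupp : ∀ x : G, (fIdem U).coeff x ≠ 0 → ¬ p ∣ orderOf x := fun x hx h => hx (hU x h)
  have hsub : {ψ ∈ U | classInner (fun n : N => (ψ : G → ℂ) n) (θ : N → ℂ) ≠ 0} = U := by
    ext ψ
    exact ⟨fun h => h.1, fun h => ⟨h, hUθ ψ h⟩⟩
  have hposit : ∀ y : G, (fIdem U).coeff y ≠ 0 → ∀ u ∈ M, y⁻¹ * (u * y * u⁻¹) ∈ N := by
    intro y hy u hu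
    refine positivity' (N := N) (M := M) (e := fIdem U) (ε := EE M X) (t := EE N θ) (r := ((p : ℝ) ^ j)⁻¹) hNM (isCen_fIdem U) (EE_cen X hXinv)
      (fIdem_mul_self U) (EE_idem X) (SA_fIdem U) (EE_SA X) (fun g hg => EE_notMem X hg) (fun g hg => EE_notMem θ hg) (by
        have := hp.out.pos
        positivity) ?_ ?_ ?_ ?_ ?_ hy hu
    · intro n hn
      rw [EE_mem X (hNM hn), EE_mem θ hn, hX ⟨n, hn⟩, hcards]
      have h1 : (X : M → ℂ) 1 = (θ : N → ℂ) 1 := hX 1
      rw [h1]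
      push_cast
      rw [mul_inv]
      ring
    · rw [fIdem_mul_EE θ hinv, hsub]
    · intro g hg hgN
      by_contra hne
      exact hgN (hmemN g (hsupp g hne) hg)
    · intro y z hy hz hyz
      have h1 := hreg y (hsupp y hy)
      have h2 := hreg z (hsupp z hz)
      have h3 : (z : G ⧸ N) = (y : G ⧸ N) * ((y⁻¹ * z : G) : G ⧸ N) := by
        rw [← QuotientGroup.mk_mul, mul_inv_cancel_left]
      rw [h3] at h2
      obtain ⟨v, hv, hvz⟩ := Cfsg.Agent.H16.BNS.coset_conj (V := R) ⟨j, hj⟩ (fun u hu => hRn.conj_mem u hu _) hyz h1 h2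
      obtain ⟨w, rfl⟩ := QuotientGroup.mk_surjective v
      have hvz' : (w : G ⧸ N) * ((y : G ⧸ N) * ((y⁻¹ * z : G) : G ⧸ N)) * (w : G ⧸ N)⁻¹ = (y : G ⧸ N) := hvz
      rw [← h3] at hvz'
      refine ⟨w⁻¹, M.inv_mem hv, ?_⟩
      rw [← mk_eq_iff', inv_inv, QuotientGroup.mk_mul, QuotientGroup.mk_mul, QuotientGroup.mk_inv, ← hvz']
      group
    · intro u hu
      exact comm_aux hNM θ X hX u hu
  have hN0 : ∀ y : G, y ∉ N → (fIdem U).coeff y = 0 := by
    intro y hy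
    by_contra hne
    apply hy
    apply hmemN y (hsupp y hne)
    apply hcent
    rw [Subgroup.mem_centralizer_iff]
    intro v hv
    obtain ⟨u, rfl⟩ := QuotientGroup.mk_surjective v
    have h1 := hposit y hne u hv
    rw [← mk_eq_iff', QuotientGroup.mk_mul, QuotientGroup.mk_mul, QuotientGroup.mk_inv] at h1
    have h2 : (y : G ⧸ N) * (u : G ⧸ N) = (u : G ⧸ N) * (y : G ⧸ N) := by
      conv_lhs => rw [h1]
      rw [inv_mul_cancel_right]
    exact h2.symm
  -- central characters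
  have hom : ∀ φ : IrrCharacter G, classInner (fun n : N => (φ : G → ℂ) n) (θ : N → ℂ) ≠ 0 →
      omega (φ : G → ℂ) (fIdem U) * (θ : N → ℂ) 1 = ∑ n : N, (fIdem U).coeff n * (θ : N → ℂ) n := by
    intro φ hφ
    obtain ⟨d, hd0, hd⟩ := irr_one_eq_nat φ.2
    have hne : (φ : G → ℂ) 1 ≠ 0 := by
      rw [hd]; exact Nat.cast_ne_zero.2 (Nat.pos_iff_ne_zero.1 hd0)
    have h1 : lin (φ : G → ℂ) (fIdem U) = ∑ n : N, (fIdem U).coeff n * (φ : G → ℂ) n := by
      rw [lin_apply, ← Finset.sum_subtype (Finset.univ.filter fun x => x ∈ N) (by simp) (fun x => (fIdem U).coeff x * (φ : G → ℂ) x), Finset.sum_filter]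
      refine Finset.sum_congr rfl fun x _ => ?_
      split_ifs with h
      · rfl
      · rw [hN0 x h, zero_mul]
    unfold omega
    rw [h1, div_mul_eq_mul_div, div_eq_iff hne, Finset.sum_mul, Finset.sum_mul]
    refine Finset.sum_congr rfl fun n _ => ?_
    have h2 := res_eq θ hinv φ hφ n
    linear_combination (fIdem U).coeff (n : G) * h2
  have h1 := hom χ (hUθ χ hχ)
  have h2 := hom ψ hψ
  rw [← h1, omega_fIdem, omega_fIdem, if_pos hχ] at h2
  by_contra hcon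
  rw [if_neg hcon, zero_mul, one_mul] at h2
  obtain ⟨d, hd0, hd⟩ := irr_one_eq_nat θ.2
  rw [hd] at h2
  have : (d : ℂ) ≠ 0 := Nat.cast_ne_zero.2 (Nat.pos_iff_ne_zero.1 hd0)
  exact this h2.symm

end Cfsg.Agent.LKO
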