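import Mathlib
import Cfsg.Agent.L.KO3
import Cfsg.Agent.H26.OpCon4
import Cfsg.Agent.H26.Cover9
import Cfsg.Agent.H11.PF1

set_option autoImplicit false

/-! The Kiyota-Okuyama theorem: reductions. -/

namespace Cfsg.Agent.LKO

open Cfsg Cfsg.Agent.H11 Cfsg.Agent.H3 Cfsg.Agent.H26
open scoped ComplexConjugate

universe u

variable {G : Type u} [Group G] [Fintype G]

lemma irrMap_sub {N T : Subgroup G} (hNT : N ≤ T) (θ : IrrCharacter N) (k : N.subgroupOf T) :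
    ((irrMap (subE hNT) θ : IrrCharacter (N.subgroupOf T)) : N.subgroupOf T → ℂ) k = (θ : N → ℂ) ⟨((k : T) : G), k.2⟩ := by
  rw [irrMap_apply]
  congr 1

/-- the set of characters of `T` over `θ` inducing into `U` -/
def Up {N T : Subgroup G} (hNT : N ≤ T) [Fintype N] (θ : IrrCharacter N) (U : Set (IrrCharacter G)) : Set (IrrCharacter T) :=
  {η | classInner (fun n : N => (η : T → ℂ) ⟨(n : G), hNT n.2⟩) (θ : N → ℂ) ≠ 0 ∧ ∃ χ ∈ U, indFun T (η : T → ℂ) = (χ : G → ℂ)}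

lemma isCen_res (T : Subgroup G) [Fintype T] (U : Set (IrrCharacter G)) : IsCen (toAlg (fun t : T => (fIdem U).coeff (t : G))) := by
  apply isCen_toAlg
  intro g x
  show (fIdem U).coeff ((x * g * x⁻¹ : T) : G) = (fIdem U).coeff (g : G)
  rw [Subgroup.coe_mul, Subgroup.coe_mul, Subgroup.coe_inv]
  exact isCen_fIdem U _ _

lemma omega_res {T : Subgroup G} [Fintype T] (U : Set (IrrCharacter G)) (ζ : IrrCharacter T) (hζ : IsIrrCharacter G (indFun T (ζ : T → ℂ))) [Decidable (∃ χ ∈ U, indFun T (ζ : T → ℂ) = (χ : G → ℂ))] :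
    omega (ζ : T → ℂ) (toAlg (fun t : T => (fIdem U).coeff (t : G))) = if ∃ χ ∈ U, indFun T (ζ : T → ℂ) = (χ : G → ℂ) then 1 else 0 := by
  classical
  letI := Fintype.ofFinite (IrrCharacter G)
  have hζ1 : (ζ : T → ℂ) 1 ≠ 0 := by
    obtain ⟨d, hd0, hd⟩ := irr_one_eq_nat ζ.2
    rw [hd]; exact Nat.cast_ne_zero.2 (Nat.pos_iff_ne_zero.1 hd0)
  have hG : (Nat.card G : ℂ) ≠ 0 := Nat.cast_ne_zero.2 Nat.card_pos.ne'
  have hT : (Nat.card T : ℂ) ≠ 0 := Nat.cast_ne_zero.2 Nat.card_pos.ne'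
  have h1 : lin (ζ : T → ℂ) (toAlg (fun t : T => (fIdem U).coeff (t : G))) =
      ∑ χ : IrrCharacter G with χ ∈ U, (Nat.card G : ℂ)⁻¹ * ((χ : G → ℂ) 1 * ((Nat.card T : ℂ) * classInner (ζ : T → ℂ) (fun t : T => (χ : G → ℂ) t))) := by
    rw [lin_apply]
    have e1 : ∀ t : T, (toAlg (fun t : T => (fIdem U).coeff (t : G))).coeff t * (ζ : T → ℂ) t =
        ∑ χ : IrrCharacter G with χ ∈ U, (Nat.card G : ℂ)⁻¹ * ((χ : G → ℂ) 1 * ((ζ : T → ℂ) t * conj ((χ : G → ℂ) t))) := by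
      intro t
      rw [coeff_toAlg, coeff_fIdem]
      unfold blockCoeff
      rw [finsum_mem_irr, Finset.mul_sum, Finset.sum_mul]
      refine Finset.sum_congr rfl fun χ _ => ?_
      ring
    rw [Finset.sum_congr rfl fun t _ => e1 t, Finset.sum_comm]
    refine Finset.sum_congr rfl fun χ _ => ?_
    rw [← Finset.mul_sum, ← Finset.mul_sum]
    unfold classInner
    rw [mul_inv_cancel_left₀ hT]
  have h2 : ∀ χ : IrrCharacter G, classInner (ζ : T → ℂ) (fun t : T => (χ : G → ℂ) t) = if indFun T (ζ : T → ℂ) = (χ : G → ℂ) then 1 else 0 := by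
    intro χ
    rw [← frobenius_reciprocity T _ (irr_classFun χ.2), classInner_irr hζ χ.2]
  unfold omega
  rw [h1]
  split_ifs with h
  · obtain ⟨χ, hχ, he⟩ := h
    rw [Finset.sum_eq_single χ]
    · rw [h2, if_pos he, ← he, indFun_one_apply]
      have h3 : (Nat.card G : ℂ) = (T.index : ℂ) * Nat.card T := by
        exact_mod_cast (Subgroup.index_mul_card T).symm
      have h4 : (T.index : ℂ) ≠ 0 := by
        intro h0; rw [h0, zero_mul] at h3; exact hG h3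
      rw [h3]
      field_simp
    · intro χ' _ hne
      rw [h2, if_neg]
      · ring
      · intro h'
        exact hne (Subtype.ext (h'.symm.trans he))
    · intro hn
      exact absurd (Finset.mem_filter.2 ⟨Finset.mem_univ _, hχ⟩) hn
  · rw [Finset.sum_eq_zero, zero_div]
    intro χ hχ
    rw [h2, if_neg]
    · ring
    · intro h'
      exact h ⟨χ, (Finset.mem_filter.1 hχ).2, h'⟩

lemma res_mul {N T : Subgroup G} [hN : N.Normal] (hNT : N ≤ T) [Fintype N] [Fintype T] [Fintype (N.subgroupOf T)] (θ : IrrCharacter N)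
    (hT : T = inertia hN (θ : N → ℂ)) (U : Set (IrrCharacter G)) :
    toAlg (fun t : T => (fIdem U).coeff (t : G)) * EE (N.subgroupOf T) (irrMap (subE hNT) θ) = fIdem (Up hNT θ U) := by
  classical
  haveI hn : (N.subgroupOf T).Normal := hN.subgroupOf T
  have hinv : ∀ (g : T) (n : N.subgroupOf T), ((irrMap (subE hNT) θ : IrrCharacter (N.subgroupOf T)) : N.subgroupOf T → ℂ) ⟨g * n * g⁻¹, hn.conj_mem n n.2 g⟩ =
      ((irrMap (subE hNT) θ : IrrCharacter (N.subgroupOf T)) : N.subgroupOf T → ℂ) n := by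
    intro g n
    rw [irrMap_sub, irrMap_sub]
    have h1 : (g : G) ∈ inertia hN (θ : N → ℂ) := by rw [← hT]; exact g.2
    exact (mem_inertia' hN _ _).1 h1 ⟨((n : T) : G), n.2⟩
  apply isCen_ext (isCen_mul (isCen_res T U) (EE_cen _ hinv)) (isCen_fIdem _)
  intro ζ
  rw [omega_mul ζ.2 (isCen_res T U), omega_fIdem]
  have hsub := classInner_sub hNT (ζ : T → ℂ) θ
  by_cases h : classInner (fun n : N => (ζ : T → ℂ) ⟨(n : G), hNT n.2⟩) (θ : N → ℂ) = 0
  · rw [omega_EE_zero _ ζ (by rw [hsub]; exact h), mul_zero, if_neg (fun h' => h'.1 h)]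
  · rw [omega_EE _ hinv ζ (by rw [hsub]; exact h), mul_one]
    have hirr := PF.corr_irr hN hNT θ.2 hT ζ.2 h
    rw [omega_res U ζ hirr]
    by_cases hU : ∃ χ ∈ U, indFun T (ζ : T → ℂ) = (χ : G → ℂ)
    · rw [if_pos hU, if_pos ⟨h, hU⟩]
    · rw [if_neg hU, if_neg (fun h' => hU h'.2)]

/-- `p`-singularity is inherited in cosets of a `p'`-group -/
lemma sing_coset {p : ℕ} [hp : Fact p.Prime] {N : Subgroup G} [hN : N.Normal] (hc : ¬ p ∣ Nat.card N) {x y : G} (hxy : x⁻¹ * y ∈ N)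
    (hx : p ∣ orderOf x) : p ∣ orderOf y := by
  have h1 : (x : G ⧸ N) = (y : G ⧸ N) := QuotientGroup.eq.2 hxy
  have h2 : p ∣ orderOf (x : G ⧸ N) := by
    by_contra hcon
    have h3 : x ^ orderOf (x : G ⧸ N) ∈ N := by
      rw [← QuotientGroup.eq_one_iff, QuotientGroup.mk_pow, pow_orderOf_eq_one]
    have h4 : orderOf (x ^ orderOf (x : G ⧸ N)) ∣ Nat.card N := by
      have := orderOf_dvd_natCard (⟨_, h3⟩ : N)
      rwa [Subgroup.orderOf_mk] at this
    have h5 : orderOf (x : G ⧸ N) ∣ orderOf x := orderOf_map_dvd (QuotientGroup.mk' N) x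
    rw [orderOf_pow_of_dvd (orderOf_pos _).ne' h5] at h4
    have h6 : orderOf x = orderOf (x : G ⧸ N) * (orderOf x / orderOf (x : G ⧸ N)) := (Nat.mul_div_cancel' h5).symm
    rw [h6] at hx
    rcases (Nat.Prime.dvd_mul hp.out).1 hx with h7 | h7
    · exact hcon h7
    · exact hc (h7.trans h4)
  rw [h1] at h2
  exact h2.trans (orderOf_map_dvd (QuotientGroup.mk' N) y)

lemma van_inv {p : ℕ} [hp : Fact p.Prime] {N : Subgroup G} [hN : N.Normal] [Fintype N] (hc : ¬ p ∣ Nat.card N) (θ : IrrCharacter N)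
    (hinv : ∀ (g : G) (n : N), (θ : N → ℂ) ⟨g * n * g⁻¹, hN.conj_mem n n.2 g⟩ = (θ : N → ℂ) n)
    (U : Set (IrrCharacter G)) (hU : ∀ x : G, p ∣ orderOf x → (fIdem U).coeff x = 0) (x : G) (hx : p ∣ orderOf x) :
    (fIdem {ψ ∈ U | classInner (fun n : N => (ψ : G → ℂ) n) (θ : N → ℂ) ≠ 0}).coeff x = 0 := by
  classical
  rw [← fIdem_mul_EE θ hinv, coeff_mul']
  refine Finset.sum_eq_zero fun h _ => ?_
  by_cases hh : h⁻¹ * x ∈ N
  · rw [hU h (sing_coset hc (x := x) (y := h) (by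
      have := N.inv_mem hh
      rwa [mul_inv_rev, inv_inv] at this) hx), zero_mul]
  · rw [EE_notMem θ hh, mul_zero]

lemma van_sub {p : ℕ} [hp : Fact p.Prime] {N T : Subgroup G} [hN : N.Normal] (hNT : N ≤ T) [Fintype N] [Fintype T] (hc : ¬ p ∣ Nat.card N) (θ : IrrCharacter N)
    (hT : T = inertia hN (θ : N → ℂ)) (U : Set (IrrCharacter G))
    (hU : ∀ x : G, p ∣ orderOf x → (fIdem U).coeff x = 0) (x : T) (hx : p ∣ orderOf x) :
    (fIdem (Up hNT θ U)).coeff x = 0 := by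
  classical
  letI : Fintype (N.subgroupOf T) := Fintype.ofFinite _
  rw [← res_mul hNT θ hT, coeff_mul']
  refine Finset.sum_eq_zero fun h _ => ?_
  by_cases hh : h⁻¹ * x ∈ N.subgroupOf T
  · rw [coeff_toAlg, hU (h : G) (sing_coset (N := N) hc (x := (x : G)) (y := (h : G)) (by
      have h1 := N.inv_mem (Subgroup.mem_subgroupOf.1 hh)
      rw [Subgroup.coe_mul, Subgroup.coe_inv, mul_inv_rev, inv_inv] at h1
      exact h1) (by rw [Subgroup.orderOf_coe]; exact hx)), zero_mul]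
  · rw [EE_notMem _ hh, mul_zero]

/-- Fong-Reynolds for a `p'`-group -/
lemma FR {p : ℕ} [hp : Fact p.Prime] {M : Ideal AlgInt} (hM : IsPModular p M) {N : Subgroup G} [hN : N.Normal] [Fintype N] (hc : ¬ p ∣ Nat.card N)
    (θ : IrrCharacter N) {T : Subgroup G} [Fintype T] (hT : T = inertia hN (θ : N → ℂ)) (hNT : N ≤ T)
    {χ ψ : IrrCharacter G} (hχ : classInner (fun n : N => (χ : G → ℂ) n) (θ : N → ℂ) ≠ 0) (hψ : SameBlock M (χ : G → ℂ) (ψ : G → ℂ)) :
    ∃ χ' ψ' : IrrCharacter T, SameBlock M (χ' : T → ℂ) (ψ' : T → ℂ) ∧ indFun T (χ' : T → ℂ) = (χ : G → ℂ) ∧ indFun T (ψ' : T → ℂ) = (ψ : G → ℂ) ∧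
      classInner (fun n : N => (χ' : T → ℂ) ⟨(n : G), hNT n.2⟩) (θ : N → ℂ) ≠ 0 := by
  classical
  haveI hpr : M.IsPrime := hM.2.1.isPrime
  have hb := isPBlock_single hM hc θ
  have hT' : ∀ g : G, g ∈ T ↔ ∀ θ₁ ∈ ({θ} : Set (IrrCharacter N)), ∀ θ' : IrrCharacter N,
      (∀ n : N, (θ' : N → ℂ) n = (θ₁ : N → ℂ) ⟨g * n * g⁻¹, hN.conj_mem n n.2 g⟩) → θ' ∈ ({θ} : Set (IrrCharacter N)) := by
    intro g
    rw [hT, mem_inertia']
    constructor
    · intro h θ₁ hθ₁ θ' hθ'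
      rw [Set.mem_singleton_iff] at hθ₁ ⊢
      subst hθ₁
      apply Subtype.ext
      funext n
      rw [hθ' n, h n]
    · intro h n
      have h1 := h θ rfl ⟨cj hN g (θ : N → ℂ), isIrr_cj hN θ.2 g⟩ (fun n => rfl)
      rw [Set.mem_singleton_iff] at h1
      have h2 := congrArg (fun η : IrrCharacter N => (η : N → ℂ) n) h1
      exact h2
  have hst := st4435 p M hM N {θ} hb T hT' hNT
  have hB : IsPBlock M (blockOf M (χ : G → ℂ)) := ⟨χ, rfl⟩
  obtain ⟨B', hB', hcov, hind⟩ := hst.2.2 _ hB ⟨χ, mem_blockOf_self χ, θ, rfl, hχ⟩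
  obtain ⟨B₀, hind₀, -, hirr, hmem⟩ := hst.1 B' hB' hcov
  obtain ⟨ξ, hξ⟩ := exists_mem_block hB'
  have h1 := ind_mem_of_induced hind hξ (χ := ⟨_, hirr ξ hξ⟩) rfl
  have h2 := ind_mem_of_induced hind₀ hξ (χ := ⟨_, hirr ξ hξ⟩) rfl
  have hBB : blockOf M (χ : G → ℂ) = B₀ := by
    rw [isPBlock_eq_blockOf hB h1, isPBlock_eq_blockOf hind₀.2.1 h2]
  obtain ⟨χ', hχ', hχe⟩ := (hmem χ).1 (hBB ▸ mem_blockOf_self χ)
  obtain ⟨ψ', hψ', hψe⟩ := (hmem ψ).1 (hBB ▸ (show ψ ∈ blockOf M (χ : G → ℂ) from hψ))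
  refine ⟨χ', ψ', ?_, hχe.symm, hψe.symm, ?_⟩
  · have h3 := isPBlock_eq_blockOf hB' hχ'
    have h4 : ψ' ∈ blockOf M (χ' : T → ℂ) := h3 ▸ hψ'
    exact h4
  · have hbe := isBlk_EH hb
    obtain rfl := stab_eq (M := M) hb hT'
    have hn : (N.subgroupOf (stab ⊤ (EH M N {θ}))).Normal := hN.subgroupOf _
    letI hfin : Fintype (N.subgroupOf (stab ⊤ (EH M N {θ}))) := Fintype.ofFinite _
    have hne := (cov_sub_iff hNT hn hB' hb).mp hcov
    obtain ⟨θ', hθ'⟩ := exists_constituent_restrict (N := N.subgroupOf (stab ⊤ (EH M N {θ}))) χ'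
    obtain ⟨θ₁, rfl⟩ := (irrMap (subE hNT)).surjective θ'
    rw [classInner_sub hNT] at hθ'
    have hθb : θ₁ ∈ ({θ} : Set (IrrCharacter N)) := mem_of_inner_sub hNT hn hB' hb (e_mul_E' hbe (isBlk_EH hB') hne).2 hχ' hθ'
    rw [Set.mem_singleton_iff] at hθb
    rw [hθb] at hθ'
    exact hθ'

theorem main (p : ℕ) [hp : Fact p.Prime] (M : Ideal AlgInt) (hM : IsPModular p M) : ∀ n : ℕ, ∀ (G : Type u) [Group G] [Fintype G],
    Nat.card G ≤ n → IsPSolvable p G → ∀ U : Set (IrrCharacter G), (∀ x : G, p ∣ orderOf x → (fIdem U).coeff x = 0) →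
    ∀ χ ∈ U, ∀ ψ : IrrCharacter G, SameBlock M (χ : G → ℂ) (ψ : G → ℂ) → ψ ∈ U := by
  intro n
  induction n with
  | zero =>
    intro G _ _ hn
    exact absurd (Nat.card_pos (α := G)) (by omega)
  | succ n ih =>
    intro G _ _ hn hsolv U hU χ hχ ψ hψ
    classical
    haveI hpr : M.IsPrime := hM.2.1.isPrime
    obtain ⟨N, hNdef⟩ : ∃ N, N = pPrimeCore p G := ⟨_, rfl⟩
    haveI hN : N.Normal := hNdef ▸ H1.pPrimeCore_normal p G
    letI : Fintype N := Fintype.ofFinite _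
    have hc : ¬ p ∣ Nat.card N := by
      have h := H1.pPrimeCore_coprime p G
      rw [← hNdef] at h
      exact (Nat.Prime.coprime_iff_not_dvd hp.out).1 h.symm
    obtain ⟨θ, hθ⟩ := exists_constituent_restrict (N := N) χ
    obtain ⟨T, hT⟩ : ∃ T, T = inertia hN (θ : N → ℂ) := ⟨_, rfl⟩
    letI : Fintype T := Fintype.ofFinite _
    have hNT : N ≤ T := by rw [hT]; exact le_inertia hN (irr_classFun θ.2)
    by_cases hTt : T = ⊤
    · have hinv : ∀ (g : G) (n : N), (θ : N → ℂ) ⟨g * n * g⁻¹, hN.conj_mem n n.2 g⟩ = (θ : N → ℂ) n := by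
        intro g
        exact (mem_inertia' hN _ _).1 (by rw [← hT, hTt]; exact Subgroup.mem_top g)
      obtain ⟨B, hB, hmem, -⟩ := st4492 p M hM hsolv N hNdef θ hinv
      have hχB := (hmem χ).2 hθ
      have h3 := isPBlock_eq_blockOf hB hχB
      have hψB : ψ ∈ B := by rw [h3]; exact hψ
      have hψθ := (hmem ψ).1 hψB
      exact (inv_case hsolv hNdef θ hinv {ψ ∈ U | classInner (fun n : N => (ψ : G → ℂ) n) (θ : N → ℂ) ≠ 0} (van_inv hc θ hinv U hU) (fun χ h => h.2)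
        (χ := χ) (ψ := ψ) ⟨hχ, hθ⟩ hψθ).1
    · obtain ⟨χ', ψ', hsame, hχe, hψe, hχθ⟩ := FR hM hc θ hT hNT hθ hψ
      have hcard : Nat.card T ≤ n := by
        have h1 : Nat.card T < Nat.card G :=
          lt_of_le_of_ne (Subgroup.card_le_card_group T) (fun h => hTt (Subgroup.eq_top_of_card_eq T h))
        omega
      have h2 := ih T hcard (H23.isPSolvable_subgroup T hsolv) (Up hNT θ U) (van_sub hNT hc θ hT U hU) χ' ⟨hχθ, χ, hχ, hχe⟩ ψ' hsame
      obtain ⟨-, χ₁, hχ₁, he⟩ := h2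
      have h3 : ψ = χ₁ := Subtype.ext (hψe.symm.trans he)
      rw [h3]
      exact hχ₁

end Cfsg.Agent.LKO
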