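import Mathlib
import Cfsg.Agent.L.StB1
import Cfsg.Agent.S2154
import Cfsg.Agent.S2155
import Cfsg.Agent.S2318
import Cfsg.Agent.S2327
import Cfsg.Agent.S1265
import Cfsg.Agent.H15.ChevLevi

set_option autoImplicit false

/-! Chevalley groups: the centraliser of a radical p-subgroup. -/

namespace Cfsg.Agent.LSt

open Cfsg

theorem genF_parabolic {F : Type*} [Field F] [Fintype F] (p : ℕ) [Fact p.Prime] [CharP F p] (D : Cfsg.Lie.ChevalleyDatum) (hD : D ∈ [Cfsg.Lie.chevG2, Cfsg.Lie.chevB2, Cfsg.Lie.chevD4, Cfsg.Lie.chevF4, Cfsg.Lie.chevE6, Cfsg.Lie.chevE7, Cfsg.Lie.chevE8]) (J : Set ℕ) (hJ : ∃ i, i < D.rank ∧ i ∉ J) : IsPGroup p ↥(Cfsg.generalizedFittingSubgroup ↥(D.parabolicSubgroup F J)) := by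
  obtain ⟨N, η, rc, hG, hE⟩ := Cfsg.Agent.H6.exists_ext hD
  exact Cfsg.Agent.H15.Chev.genFitting_parabolic p hG hE (Cfsg.Agent.H15.Chev.conn hD) hJ

theorem par_le {F : Type*} [Field F] [Fintype F] (D : Cfsg.Lie.ChevalleyDatum) (hD : D ∈ [Cfsg.Lie.chevG2, Cfsg.Lie.chevB2, Cfsg.Lie.chevD4, Cfsg.Lie.chevF4, Cfsg.Lie.chevE6, Cfsg.Lie.chevE7, Cfsg.Lie.chevE8]) (J : Set ℕ) : D.parabolicSubgroup F J ≤ D.group F := by
  obtain ⟨N, η, rc, hG, hE⟩ := Cfsg.Agent.H6.exists_ext hD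
  rw [Cfsg.Agent.H22.parabolic_gen hG]
  refine sup_le hG.borel_le ?_
  rw [Subgroup.closure_le]
  rintro _ ⟨j, _, hj, rfl⟩
  exact hG.ng_mem_group j

theorem chev_cen {F : Type*} [Field F] [Fintype F] (p : ℕ) [Fact p.Prime] [CharP F p] (D : Cfsg.Lie.ChevalleyDatum) (hD : D ∈ [Cfsg.Lie.chevG2, Cfsg.Lie.chevB2, Cfsg.Lie.chevD4, Cfsg.Lie.chevF4, Cfsg.Lie.chevE6, Cfsg.Lie.chevE7, Cfsg.Lie.chevE8])
    (Q : Subgroup ↥(D.group F)) (hQ : IsPGroup p Q) (hne : Q ≠ ⊥)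
    (hrad : (Cfsg.pCore p (Subgroup.normalizer (Q : Set ↥(D.group F)))).map (Subgroup.normalizer (Q : Set ↥(D.group F))).subtype = Q)
    (x : ↥(D.group F)) (hx : x ∈ Subgroup.centralizer (Q : Set ↥(D.group F))) (hxp : ¬ p ∣ orderOf x) : x = 1 := by
  haveI : Finite (Matrix D.Idx D.Idx F) := inferInstanceAs (Finite (D.Idx → D.Idx → F))
  haveI : Finite (GL D.Idx F) := Finite.of_injective (fun g : GL D.Idx F => (g : Matrix D.Idx D.Idx F)) fun a b h => Units.ext h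
  obtain ⟨g, hg, J, hJ, h1, h2⟩ := Cfsg.Agent.S2154.result (F := F) p D hD (Q.map (D.group F).subtype)
    (by rintro _ ⟨y, -, rfl⟩; exact y.2) (hQ.map _) (fun h => hne ((Subgroup.map_eq_bot_iff_of_injective _ (Subgroup.subtype_injective _)).1 h))
  have hPG := par_le (F := F) D hD J
  -- the map
  let φ : ↥(D.parabolicSubgroup F J) →* ↥(D.group F) :=
    (MulAut.conj (⟨g, hg⟩ : ↥(D.group F))).toMonoidHom.comp (Subgroup.inclusion hPG)
  have hφ : Function.Injective φ := (MulAut.conj (⟨g, hg⟩ : ↥(D.group F))).injective.comp (Subgroup.inclusion_injective hPG)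
  have hNK : Subgroup.normalizer (Q : Set ↥(D.group F)) ≤ φ.range := by
    intro n hn
    have h3 : (n : GL D.Idx F) ∈ Subgroup.normalizer ((Q.map (D.group F).subtype : Subgroup (GL D.Idx F)) : Set (GL D.Idx F)) ⊓ D.group F := by
      refine Subgroup.mem_inf.2 ⟨?_, n.2⟩
      rw [Subgroup.mem_normalizer_iff]
      intro y
      constructor
      · rintro ⟨z, hz, rfl⟩
        exact ⟨n * z * n⁻¹, (Subgroup.mem_normalizer_iff.1 hn z).1 hz, rfl⟩
      · rintro ⟨z, hz, hz2⟩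
        refine ⟨n⁻¹ * z * n, ?_, ?_⟩
        · have := (Subgroup.mem_normalizer_iff.1 (inv_mem hn) z).1 hz
          rwa [inv_inv] at this
        · show (n : GL D.Idx F)⁻¹ * (z : GL D.Idx F) * n = y
          have h4 : (z : GL D.Idx F) = n * y * (n : GL D.Idx F)⁻¹ := hz2
          rw [h4]; group
    obtain ⟨k, hk, hk2⟩ := h1 h3
    exact ⟨⟨k, hk⟩, Subtype.ext hk2⟩
  have hF := genF_parabolic (F := F) p D hD J hJ
  haveI : Finite ↥(D.parabolicSubgroup F J) := inferInstance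
  have hle : (Cfsg.generalizedFittingSubgroup ↥(D.parabolicSubgroup F J)).map φ ≤ Q := by
    apply le_of_radical hQ hrad hNK (hF.map φ)
    rintro _ ⟨k, rfl⟩
    have key : ∀ (k : ↥(D.parabolicSubgroup F J)) (z : ↥(D.group F)), z ∈ (Cfsg.generalizedFittingSubgroup ↥(D.parabolicSubgroup F J)).map φ →
        φ k * z * (φ k)⁻¹ ∈ (Cfsg.generalizedFittingSubgroup ↥(D.parabolicSubgroup F J)).map φ := by
      rintro k _ ⟨w, hw, rfl⟩
      refine ⟨k * w * k⁻¹, ?_, by rw [map_mul, map_mul, map_inv]⟩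
      exact (Cfsg.Agent.H10.genFitting_normal _).conj_mem w hw k
    rw [Subgroup.mem_normalizer_iff]
    intro z
    refine ⟨key k z, fun h => ?_⟩
    have h5 := key k⁻¹ _ h
    rw [map_inv, inv_inv] at h5
    have h6 : (φ k)⁻¹ * (φ k * z * (φ k)⁻¹) * φ k = z := by group
    rwa [h6] at h5
  obtain ⟨y, hy⟩ := hNK (Subgroup.centralizer_le_normalizer _ hx)
  have hyc : y ∈ Subgroup.centralizer (Cfsg.generalizedFittingSubgroup ↥(D.parabolicSubgroup F J) : Set ↥(D.parabolicSubgroup F J)) := by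
    rw [Subgroup.mem_centralizer_iff]
    intro z hz
    apply hφ
    rw [map_mul, map_mul, hy]
    exact (Subgroup.mem_centralizer_iff.1 hx) _ (hle ⟨z, hz, rfl⟩)
  have hyF := Cfsg.Agent.S1265.result hyc
  have : y = 1 := by
    apply pel_eq_one hF hyF
    rwa [← orderOf_injective φ hφ, hy]
  rw [← hy, this, map_one]

end Cfsg.Agent.LSt
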