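import Mathlib
import Cfsg.Agent.L.StB1
import Cfsg.Agent.S2326
import Cfsg.Agent.H16.HkG
import Cfsg.Agent.H16.BnG

set_option autoImplicit false

/-! Split BN pairs: exactly one character of defect zero. -/

namespace Cfsg.Agent.LSt

open Cfsg Cfsg.Agent.H6 Cfsg.Agent.H16.BNS Cfsg.Agent.H11

variable {G : Type*} [Group G] [Fintype G] {P : Cfsg.BNPair G} {p : ℕ} [Fact p.Prime] {M : Ideal AlgInt}

lemma card_pow' (S : Split P p) (hF : Full S) :
    Nat.card (S.V ∅) = p ^ (Nat.card G).factorization p := Cfsg.Agent.S2326.card_pow S hF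

theorem exists_dz (S : Split P p) (hF : Full S) :
    ∃ χ : IrrCharacter G, ¬ p ∣ Nat.card G / charDegree (χ : G → ℂ) := by
  refine ⟨⟨StC P, StC_irr S⟩, ?_⟩
  have h1 := (charDegree_spec (StC_irr S)).1
  have h2 : charDegree (StC P) = Nat.card (S.V ∅) := by
    have h3 : StC P 1 = ((Nat.card (S.V ∅) : ℕ) : ℂ) := by
      unfold StC
      rw [StZ_one S]
      simp
    rw [h3] at h1
    exact_mod_cast h1.symm
  show ¬ p ∣ Nat.card G / charDegree (StC P)
  rw [h2]
  exact hF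

lemma tr_of_vanish' {k : ℕ} (ρ : Representation ℂ G (Fin k → ℂ)) (H : Subgroup G)
    (h : ∀ u ∈ H, u ≠ 1 → ρ.character u = 0) : LinearMap.trace ℂ (Fin k → ℂ) (avg ρ H) = ρ.character 1 / (Nat.card H : ℂ) := by
  classical
  have h1 := tr_mul_avg ρ H 1
  rw [map_one, one_mul] at h1
  rw [h1, Finset.sum_eq_single (1 : G)]
  · rw [mul_one, div_eq_mul_inv, mul_comm]
  · intro u hu hne
    rw [one_mul]
    exact h u (Finset.mem_filter.1 hu).2 hne
  · intro h2
    exact absurd (Finset.mem_filter.2 ⟨Finset.mem_univ _, one_mem H⟩) h2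

lemma dvd_deg {χ : IrrCharacter G} (h : ¬ p ∣ Nat.card G / charDegree (χ : G → ℂ)) :
    p ^ (Nat.card G).factorization p ∣ charDegree (χ : G → ℂ) := by
  obtain ⟨n, hn, h6, h7⟩ : ∃ n : ℕ, charDegree (χ : G → ℂ) = n ∧ n ∣ Nat.card G ∧ n ≠ 0 := ⟨_, rfl, Cfsg.Agent.H27.charDegree_dvd_card χ.2, (charDegree_spec χ.2).2⟩
  rw [hn] at h ⊢
  obtain ⟨c, hc⟩ := h6
  rw [hc, Nat.mul_div_cancel_left _ (Nat.pos_of_ne_zero h7)] at h
  have hc0 : c ≠ 0 := by rintro rfl; exact h (dvd_zero _)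
  rw [hc, Nat.factorization_mul h7 hc0, Finsupp.add_apply, Nat.factorization_eq_zero_of_not_dvd h, add_zero]
  exact Nat.ordProj_dvd _ _

theorem unique_dz (S : Split P p) {K : Type*} [Fintype K] (R : RankOne S K) (hF : Full S) (hM : IsPModular p M)
    (χ χ' : IrrCharacter G) (h : ¬ p ∣ Nat.card G / charDegree (χ : G → ℂ)) (h' : ¬ p ∣ Nat.card G / charDegree (χ' : G → ℂ)) : χ = χ' := by
  haveI := Cfsg.Agent.H11.pmod_isPrime hM
  apply Subtype.ext
  have hd := dvd_deg h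
  have hd' := dvd_deg h'
  have e1 := (charDegree_spec χ.2).1
  have e1' := (charDegree_spec χ'.2).1
  obtain ⟨χ, hχ⟩ := χ
  obtain ⟨χ', hχ'⟩ := χ'
  simp only at *
  have hχ2 := hχ
  have hχ2' := hχ'
  obtain ⟨k, ρ, hρ, e⟩ := hχ
  obtain ⟨k', ρ', hρ', e'⟩ := hχ'
  rw [← e, ← e']
  apply defect_unique R ρ ρ' hM hF (by rw [e]; exact hχ2) (by rw [e']; exact hχ2')
  · apply tr_of_vanish'
    intro u hu h1
    rw [e]
    exact Cfsg.Agent.H3.char_eq_zero_of_defect_zero hχ2 (Fact.out : p.Prime)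
      (Nat.pow_succ_factorization_not_dvd Nat.card_pos.ne' (Fact.out : p.Prime)) e1 hd u
      (pel_dvd (U_pel _ hu) h1)
  · apply tr_of_vanish'
    intro u hu h1
    rw [e']
    exact Cfsg.Agent.H3.char_eq_zero_of_defect_zero hχ2' (Fact.out : p.Prime)
      (Nat.pow_succ_factorization_not_dvd Nat.card_pos.ne' (Fact.out : p.Prime)) e1' hd' u
      (pel_dvd (U_pel _ hu) h1)

/-- the block count for a split BN pair -/
theorem card_blocks_split (S : Split P p) {K : Type*} [Fintype K] (R : RankOne S K) (hF : Full S) (hM : IsPModular p M)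
    (hc : Cen p G) (hp : p ∣ Nat.card G) :
    Nat.card {B : Set (IrrCharacter G) // IsPBlock M B} =
      Nat.card {z : G // z ∈ Subgroup.center G ∧ ¬ p ∣ orderOf z} + 1 :=
  card_blocks hM hc hp (exists_dz S hF) (unique_dz S R hF hM)

end Cfsg.Agent.LSt
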